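import Mathlib
import Cfsg.Agent.ExtraspecialTwo.Coord

/-!
An extraspecial 2-group for every quadratic form with the standard polar form: `Sp n × ZMod 2`
twisted by a bilinear form inducing the quadratic form.
-/

set_option autoImplicit false

namespace CfsgLib.ExtraspecialTwo

open Cfsg CfsgLib.F2Forms
open scoped commutatorElement

/-- A bilinear form whose diagonal is `form n w`. -/
def cocycle (n : ℕ) (w u v : Sp n) : ZMod 2 :=
  ∑ i : Fin n, (u (.inl i) * v (.inr i) + u (.inl i) * v (.inl i) * w (.inr i) +
    u (.inr i) * v (.inr i) * w (.inl i))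

theorem cocycle_add_left (n : ℕ) (w u u' v : Sp n) :
    cocycle n w (u + u') v = cocycle n w u v + cocycle n w u' v := by
  simp only [cocycle, ← Finset.sum_add_distrib, Pi.add_apply]
  exact Finset.sum_congr rfl fun i _ => by ring

theorem cocycle_add_right (n : ℕ) (w u v v' : Sp n) :
    cocycle n w u (v + v') = cocycle n w u v + cocycle n w u v' := by
  simp only [cocycle, ← Finset.sum_add_distrib, Pi.add_apply]
  exact Finset.sum_congr rfl fun i _ => by ring

theorem cocycle_zero_left (n : ℕ) (w v : Sp n) : cocycle n w 0 v = 0 := by simp [cocycle]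

theorem cocycle_zero_right (n : ℕ) (w v : Sp n) : cocycle n w v 0 = 0 := by simp [cocycle]

theorem cocycle_self (n : ℕ) (w v : Sp n) : cocycle n w v v = form n w v := by
  have key : ∀ a b c d : ZMod 2, a * b + a * a * d + b * b * c = a * b + (a * d + b * c) := by decide
  simp only [cocycle, key, form, quadFormPlus, hb, Finset.sum_add_distrib]

theorem cocycle_swap (n : ℕ) (w u v : Sp n) :
    cocycle n w u v + cocycle n w v u = hb n u v := by
  simp only [cocycle, hb, ← Finset.sum_add_distrib]
  refine Finset.sum_congr rfl fun i _ => ?_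
  have key : ∀ a b c d e f : ZMod 2, a * d + a * c * f + b * d * e + (c * b + c * a * f + d * b * e) =
      a * d + b * c := by decide
  exact key _ _ _ _ _ _

/-- The model group. -/
@[ext]
structure Model (n : ℕ) (w : Sp n) where
  /-- The image in the quadratic space. -/
  vec : Sp n
  /-- The central coordinate. -/
  bit : ZMod 2

namespace Model

variable {n : ℕ} {w : Sp n}

instance : Mul (Model n w) := ⟨fun a b => ⟨a.vec + b.vec, a.bit + b.bit + cocycle n w a.vec b.vec⟩⟩
instance : One (Model n w) := ⟨⟨0, 0⟩⟩
instance : Inv (Model n w) := ⟨fun a => ⟨a.vec, a.bit + cocycle n w a.vec a.vec⟩⟩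

@[simp] theorem mul_vec (a b : Model n w) : (a * b).vec = a.vec + b.vec := rfl
@[simp] theorem mul_bit (a b : Model n w) :
    (a * b).bit = a.bit + b.bit + cocycle n w a.vec b.vec := rfl
@[simp] theorem one_vec : (1 : Model n w).vec = 0 := rfl
@[simp] theorem one_bit : (1 : Model n w).bit = 0 := rfl

theorem vec_add_self (v : Sp n) : v + v = 0 := by
  funext i; exact add_self _

instance instGroup : Group (Model n w) := Group.ofLeftAxioms
  (fun a b c => by
    ext
    · simp [add_assoc]
    · simp [cocycle_add_left, cocycle_add_right]; ring)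
  (fun a => by ext <;> simp [cocycle_zero_left])
  (fun a => by
    ext
    · show (a.vec + a.vec) _ = _
      rw [vec_add_self]; rfl
    · show a.bit + cocycle n w a.vec a.vec + a.bit + cocycle n w a.vec a.vec = 0
      linear_combination add_self a.bit + add_self (cocycle n w a.vec a.vec))

/-- Coordinates as a product. -/
def equivProd : Model n w ≃ Sp n × ZMod 2 :=
  ⟨fun a => (a.vec, a.bit), fun p => ⟨p.1, p.2⟩, fun _ => rfl, fun _ => rfl⟩

instance : Finite (Model n w) := Finite.of_equiv _ equivProd.symm

theorem card : Nat.card (Model n w) = 2 ^ (2 * n + 1) := by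
  rw [Nat.card_congr equivProd, Nat.card_prod, Nat.card_eq_fintype_card, card_sp, Nat.card_zmod, pow_succ]

theorem mem_center (a : Model n w) : a ∈ Subgroup.center (Model n w) ↔ a.vec = 0 := by
  rw [Subgroup.mem_center_iff]
  constructor
  · intro h
    refine hb_ext n a.vec 0 fun u => ?_
    have := congrArg Model.bit (h ⟨u, 0⟩)
    simp only [mul_bit] at this
    rw [hb_zero_right, ← cocycle_swap n w]
    linear_combination this + add_self (cocycle n w a.vec u)
  · intro h b
    ext
    · simp [h]
    · simp [h, cocycle_zero_left, cocycle_zero_right, add_comm]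

/-- The projection to the quadratic space. -/
def proj : Model n w →* Multiplicative (Sp n) :=
  MonoidHom.mk' (fun a => Multiplicative.ofAdd a.vec) fun _ _ => rfl

theorem card_center : Nat.card ↥(Subgroup.center (Model n w)) = 2 := by
  let e : ↥(Subgroup.center (Model n w)) ≃ ZMod 2 :=
    { toFun := fun a => a.1.bit
      invFun := fun b => ⟨⟨0, b⟩, (mem_center _).2 rfl⟩
      left_inv := fun a => Subtype.ext (Model.ext ((mem_center _).1 a.2).symm rfl)
      right_inv := fun _ => rfl }
  rw [Nat.card_congr e, Nat.card_zmod]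

theorem isCoord : IsCoord (proj (n := n) (w := w)) (form n w) where
  surj v := ⟨⟨v.toAdd, 0⟩, rfl⟩
  ker a := by rw [mem_center]; exact Iff.rfl
  card_center := card_center
  sq_mem a := (mem_center _).2 (vec_add_self a.vec)
  sq a := by
    show a * a = 1 ↔ form n w a.vec = 0
    rw [← cocycle_self]
    constructor
    · intro h
      have := congrArg Model.bit h
      simpa [add_self] using this
    · intro h
      ext
      · show (a.vec + a.vec) _ = _
        rw [vec_add_self]; rfl
      · simp [h, add_self]

theorem isExtraspecial (hn : 1 ≤ n) : IsExtraspecial 2 (Model n w) := by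
  haveI : Fact (Nat.Prime 2) := ⟨Nat.prime_two⟩
  have hp : IsPGroup 2 (Model n w) := IsPGroup.iff_card.2 ⟨_, card⟩
  have hsq : ∀ a : Model n w, a * a ∈ Subgroup.center (Model n w) := fun a =>
    (mem_center _).2 (vec_add_self a.vec)
  have hcm : ∀ a b : Model n w, ⁅a, b⁆ ∈ Subgroup.center (Model n w) := by
    intro a b
    rw [show ⁅a, b⁆ = (a * a) * ((a⁻¹ * b) * (a⁻¹ * b)) * (b⁻¹ * b⁻¹) by
      rw [commutatorElement_def]; group]
    exact Subgroup.mul_mem _ (Subgroup.mul_mem _ (hsq _) (hsq _)) (hsq _)
  have hcomm : commutator (Model n w) = Subgroup.center (Model n w) := by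
    refine Subgroup.eq_of_le_of_card_ge ?_ ?_
    · rw [commutator_def, Subgroup.commutator_le]
      exact fun a _ b _ => hcm a b
    · rw [card_center]
      refine (Subgroup.one_lt_card_iff_ne_bot _).2 fun hbot => ?_
      rw [commutator_def, Subgroup.commutator_eq_bot_iff_le_centralizer] at hbot
      have hc : (⟨Pi.single (.inl ⟨0, hn⟩) 1, 0⟩ : Model n w) ∈ Subgroup.center (Model n w) :=
        Subgroup.mem_center_iff.2 fun g =>
          Subgroup.mem_centralizer_iff.1 (hbot (Subgroup.mem_top _)) g (Subgroup.mem_top _)
      have h1 := congrFun ((mem_center _).1 hc) (.inl ⟨0, hn⟩)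
      simp at h1
  refine ⟨⟨hp, le_antisymm ?_ ?_, hcomm⟩, card_center⟩
  · have := CharP.frattini_le_ker_of_elementary (p := 2)
      (QuotientGroup.mk' (Subgroup.center (Model n w)))
      (fun x y => by
        show _ * _ = _ * _
        rw [← map_mul, ← map_mul, QuotientGroup.mk'_apply, QuotientGroup.mk'_apply, QuotientGroup.eq]
        have := hcm y⁻¹ x⁻¹
        rw [commutatorElement_def] at this
        simpa [mul_assoc] using this)
      (fun x => by
        rw [← map_pow, QuotientGroup.mk'_apply, QuotientGroup.eq_one_iff, pow_two]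
        exact hsq x)
    rwa [QuotientGroup.ker_mk'] at this
  · rw [← hcomm, commutator_def, Subgroup.commutator_le]
    intro a _ b _
    rw [show ⁅a, b⁆ = (a * a) * ((a⁻¹ * b) * (a⁻¹ * b)) * (b⁻¹ * b⁻¹) by
      rw [commutatorElement_def]; group]
    exact Subgroup.mul_mem _ (Subgroup.mul_mem _ (LargeExtraspecial.sq_mem_frattini hp _)
      (LargeExtraspecial.sq_mem_frattini hp _)) (LargeExtraspecial.sq_mem_frattini hp _)

end Model

end CfsgLib.ExtraspecialTwo
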